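import Mathlib

/-!
# The partition trick for operator groups

If a finite group `A` acting on an abelian group `V` is partitioned by subgroups `B ∈ 𝒜`
none of which has a nontrivial fixed point on `V`, then `v ^ (#𝒜 - 1) = 1` for all `v : V`.
-/

set_option autoImplicit false

namespace Cfsg.Agent.Lib.Helper96

theorem prod_subgroup_smul_eq_one {A V : Type*} [Group A] [Finite A] [CommGroup V]
    [MulDistribMulAction A V] (B : Subgroup A)
    (hfix : ∀ v : V, (∀ b ∈ B, b • v = v) → v = 1) (v : V) [Fintype B] :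
    ∏ b : B, (b : A) • v = 1 := by
  apply hfix
  intro c hc
  have := Finset.smul_prod_perm (G := B) v ⟨c, hc⟩
  exact this

theorem pow_eq_one_of_partition {A V : Type*} [Group A] [Finite A] [CommGroup V]
    [MulDistribMulAction A V] (𝒜 : Finset (Subgroup A)) (hne : 𝒜.Nonempty)
    (hpart : ∀ a : A, a ≠ 1 → ∃! B, B ∈ 𝒜 ∧ a ∈ B)
    (hfix : ∀ B ∈ 𝒜, ∀ v : V, (∀ b ∈ B, b • v = v) → v = 1) (v : V) :
    v ^ (𝒜.card - 1) = 1 := by
  classical
  have := Fintype.ofFinite A
  -- the norm over `A`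
  have hA : ∏ a : A, a • v = 1 := by
    obtain ⟨B, hB⟩ := hne
    apply hfix B hB
    intro c _
    exact Finset.smul_prod_perm v c
  have hB : ∀ B ∈ 𝒜, ∏ a : A, (if a ∈ B then a • v else 1) = 1 := by
    intro B hB
    refine Eq.trans ?_ (prod_subgroup_smul_eq_one B (hfix B hB) v)
    rw [← Finset.prod_filter]
    refine (Finset.prod_subtype _ (fun x => ?_) _)
    simp
  have h1 : ∏ B ∈ 𝒜, ∏ a : A, (if a ∈ B then a • v else 1) = 1 :=
    Finset.prod_eq_one hB
  rw [Finset.prod_comm] at h1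
  have h2 : ∀ a : A, ∏ B ∈ 𝒜, (if a ∈ B then a • v else 1)
      = (a • v) * (if a = 1 then v ^ (𝒜.card - 1) else 1) := by
    intro a
    by_cases ha : a = 1
    · subst ha
      simp only [one_mem, if_true, one_smul, Finset.prod_const]
      rw [← pow_succ']
      congr 1
      have := hne.card_pos
      omega
    · obtain ⟨B, ⟨hB1, hB2⟩, huniq⟩ := hpart a ha
      rw [if_neg ha, mul_one]
      rw [Finset.prod_eq_single B]
      · rw [if_pos hB2]
      · intro C hC hne'
        rw [if_neg]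
        intro haC
        exact hne' (huniq C ⟨hC, haC⟩)
      · intro h; exact absurd hB1 h
  simp only [h2] at h1
  rw [Finset.prod_mul_distrib, hA, one_mul, Finset.prod_ite_eq' ] at h1
  simpa using h1

/-- Version for subgroups of an ambient group, the action being conjugation. -/
theorem pow_eq_one_of_partition_subgroup {G : Type*} [Group G] [Finite G] (A V : Subgroup G)
    (hVab : IsMulCommutative V) (hAV : A ≤ Subgroup.normalizer (V : Set G))
    (𝒜 : Finset (Subgroup G)) (hne : 𝒜.Nonempty) (hle : ∀ B ∈ 𝒜, B ≤ A)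
    (hpart : ∀ a ∈ A, a ≠ 1 → ∃! B, B ∈ 𝒜 ∧ a ∈ B)
    (hfix : ∀ B ∈ 𝒜, V ⊓ Subgroup.centralizer (B : Set G) = ⊥) :
    ∀ v ∈ V, v ^ (𝒜.card - 1) = 1 := by
  classical
  intro v hv
  let _ : CommGroup V := { (inferInstance : Group V) with mul_comm := mul_comm' }
  let _ : MulDistribMulAction A V := MulDistribMulAction.compHom V (Subgroup.inclusion hAV)
  have hsmul : ∀ (a : A) (w : V), ((a • w : V) : G) = (a : G) * w * (a : G)⁻¹ := fun a w => rfl
  have hinj : Set.InjOn (fun B : Subgroup G => B.subgroupOf A) (𝒜 : Set (Subgroup G)) := by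
    intro B hB C hC hBC
    have key : ∀ B C : Subgroup G, B ≤ A → B.subgroupOf A = C.subgroupOf A → B ≤ C := by
      intro B C hBA h x hx
      have : (⟨x, hBA hx⟩ : A) ∈ B.subgroupOf A := hx
      rw [h] at this
      exact this
    exact le_antisymm (key B C (hle B hB) hBC) (key C B (hle C hC) hBC.symm)
  have h := pow_eq_one_of_partition (A := A) (V := V) (𝒜.image (fun B => B.subgroupOf A))
    (hne.image _) ?_ ?_ ⟨v, hv⟩
  · rw [Finset.card_image_of_injOn hinj] at h
    simpa using congrArg Subtype.val h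
  · intro a ha
    have ha' : (a : G) ≠ 1 := fun e => ha (Subtype.ext e)
    obtain ⟨B, ⟨hB1, hB2⟩, huniq⟩ := hpart a a.2 ha'
    refine ⟨B.subgroupOf A, ⟨Finset.mem_image_of_mem _ hB1, hB2⟩, ?_⟩
    rintro C' ⟨hC1, hC2⟩
    obtain ⟨C, hC, rfl⟩ := Finset.mem_image.1 hC1
    rw [huniq C ⟨hC, hC2⟩]
  · intro B' hB' w hw
    obtain ⟨B, hB, rfl⟩ := Finset.mem_image.1 hB'
    have hmem : (w : G) ∈ V ⊓ Subgroup.centralizer (B : Set G) := by
      refine Subgroup.mem_inf.2 ⟨w.2, ?_⟩
      rw [Subgroup.mem_centralizer_iff]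
      intro b hb
      have h1 := hw ⟨b, hle B hB hb⟩ hb
      have h2 : b * (w : G) * b⁻¹ = w := by
        rw [← hsmul ⟨b, hle B hB hb⟩ w, h1]
      calc b * (w : G) = b * w * b⁻¹ * b := by group
        _ = w * b := by rw [h2]
    rw [hfix B hB, Subgroup.mem_bot] at hmem
    exact Subtype.ext hmem

end Cfsg.Agent.Lib.Helper96
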