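import Cfsg.Agent.Lib.Helper96.PartitionTrick

/-!
# The partition trick, version with the partition given inside the operator group
-/

set_option autoImplicit false

namespace Cfsg.Agent.Lib.Helper96

/-- Version where `A`, `V` are subgroups of an ambient group (action by conjugation) and the
partition consists of subgroups of `↥A`. -/
theorem pow_eq_one_of_partition_subgroup' {G : Type*} [Group G] [Finite G] (A V : Subgroup G)
    (hVab : IsMulCommutative V) (hAV : A ≤ Subgroup.normalizer (V : Set G))
    (𝒜 : Finset (Subgroup A)) (hne : 𝒜.Nonempty)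
    (hpart : ∀ a : A, a ≠ 1 → ∃! B, B ∈ 𝒜 ∧ a ∈ B)
    (hfix : ∀ B ∈ 𝒜, V ⊓ Subgroup.centralizer ((B.map A.subtype : Subgroup G) : Set G) = ⊥) :
    ∀ v ∈ V, v ^ (𝒜.card - 1) = 1 := by
  classical
  intro v hv
  let _ : CommGroup V := { (inferInstance : Group V) with mul_comm := mul_comm' }
  let _ : MulDistribMulAction A V := MulDistribMulAction.compHom V (Subgroup.inclusion hAV)
  have hsmul : ∀ (a : A) (w : V), ((a • w : V) : G) = (a : G) * w * (a : G)⁻¹ := fun a w => rfl
  have h := pow_eq_one_of_partition (A := A) (V := V) 𝒜 hne hpart ?_ ⟨v, hv⟩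
  · simpa using congrArg Subtype.val h
  · intro B hB w hw
    have hmem : (w : G) ∈ V ⊓ Subgroup.centralizer ((B.map A.subtype : Subgroup G) : Set G) := by
      refine Subgroup.mem_inf.2 ⟨w.2, ?_⟩
      rw [Subgroup.mem_centralizer_iff]
      rintro _ ⟨b, hb, rfl⟩
      have h1 := hw b hb
      have h2 : (b : G) * (w : G) * (b : G)⁻¹ = w := by
        rw [← hsmul b w, h1]
      calc (A.subtype b) * (w : G) = (b : G) * w * (b : G)⁻¹ * b := by simp
        _ = w * A.subtype b := by rw [h2]; rfl
    rw [hfix B hB, Subgroup.mem_bot] at hmem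
    exact Subtype.ext hmem

end Cfsg.Agent.Lib.Helper96
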