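import Cfsg.Agent.Lib.Helper96.Ksum
import Cfsg.Agent.S0707

/-!
# Degree `2p`: geometry of a fixed-point-free element of order `p`
-/

set_option autoImplicit false
set_option linter.unusedSectionVars false

namespace Cfsg.Agent.Lib.Helper96

open Cfsg Subgroup
open scoped Classical
open scoped ComplexConjugate

section Geo

variable {G : Type*} [Group G] {Ω : Type*} [MulAction G Ω] {p : ℕ}

theorem orderOf_of_mem_zpowers (hp : p.Prime) {x : G} (hx : orderOf x = p) {y : G}
    (hy : y ∈ zpowers x) (hy1 : y ≠ 1) : orderOf y = p := by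
  have : Fact p.Prime := ⟨hp⟩
  refine orderOf_eq_prime ?_ hy1
  obtain ⟨k, rfl⟩ := mem_zpowers_iff.1 hy
  rw [← zpow_natCast, ← zpow_mul, mul_comm, zpow_mul, zpow_natCast, ← hx, pow_orderOf_eq_one,
    one_zpow]

theorem semireg (hp : p.Prime) {x : G} (hx : orderOf x = p)
    (hfpf : ∀ g : G, orderOf g = p → ∀ a : Ω, g • a ≠ a) {y : G} (hy : y ∈ zpowers x) {a : Ω}
    (hya : y • a = a) : y = 1 := by
  by_contra h1
  exact hfpf y (orderOf_of_mem_zpowers hp hx hy h1) a hya

theorem card_zpowers_eq {x : G} (hx : orderOf x = p) : Nat.card (zpowers x) = p := by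
  rw [Nat.card_zpowers, hx]

theorem zpowers_comm {x a b : G} (ha : a ∈ zpowers x) (hb : b ∈ zpowers x) : a * b = b * a := by
  obtain ⟨i, rfl⟩ := mem_zpowers_iff.1 ha
  obtain ⟨j, rfl⟩ := mem_zpowers_iff.1 hb
  rw [← zpow_add, ← zpow_add, add_comm]

/-- A nontrivial element of a group of prime order generates it. -/
theorem mem_zpowers_of_ne_one (hp : p.Prime) {x : G} (hx : orderOf x = p) {y : G}
    (hy : y ∈ zpowers x) (hy1 : y ≠ 1) : x ∈ zpowers y := by
  have hle : zpowers y ≤ zpowers x := zpowers_le.2 hy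
  have h1 : Nat.card (zpowers y) = Nat.card (zpowers x) := by
    rw [Nat.card_zpowers, Nat.card_zpowers, orderOf_of_mem_zpowers hp hx hy hy1, hx]
  have : Finite (zpowers x) := Nat.finite_of_card_ne_zero (by
    rw [card_zpowers_eq hx]; exact hp.ne_zero)
  have := Subgroup.eq_of_le_of_card_ge hle h1.ge
  rw [this]
  exact mem_zpowers x

/-- The orbit of `a` under the powers of `x`. -/
def orb (x : G) (a : Ω) : Set Ω := {b | ∃ y ∈ zpowers x, y • a = b}

theorem mem_orb {x : G} {a b : Ω} : b ∈ orb x a ↔ ∃ y ∈ zpowers x, y • a = b := Iff.rfl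

theorem self_mem_orb (x : G) (a : Ω) : a ∈ orb x a := ⟨1, one_mem _, one_smul _ _⟩

theorem smul_mem_orb {x y : G} (hy : y ∈ zpowers x) {a b : Ω} (hb : b ∈ orb x a) :
    y • b ∈ orb x a := by
  obtain ⟨z, hz, rfl⟩ := hb
  exact ⟨y * z, mul_mem hy hz, mul_smul _ _ _⟩

theorem orb_symm {x : G} {a b : Ω} (hb : b ∈ orb x a) : a ∈ orb x b := by
  obtain ⟨z, hz, rfl⟩ := hb
  exact ⟨z⁻¹, inv_mem hz, inv_smul_smul _ _⟩

theorem orb_trans {x : G} {a b c : Ω} (hb : b ∈ orb x a) (hc : c ∈ orb x b) : c ∈ orb x a := by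
  obtain ⟨z, hz, rfl⟩ := hc
  exact smul_mem_orb hz hb

theorem ncard_orb (hp : p.Prime) {x : G} (hx : orderOf x = p)
    (hfpf : ∀ g : G, orderOf g = p → ∀ a : Ω, g • a ≠ a) (a : Ω) : (orb x a).ncard = p := by
  have h1 : orb x a = Set.range (fun y : zpowers x => (y : G) • a) := by
    ext b
    constructor
    · rintro ⟨y, hy, rfl⟩
      exact ⟨⟨y, hy⟩, rfl⟩
    · rintro ⟨y, rfl⟩
      exact ⟨y, y.2, rfl⟩
  have hinj : Function.Injective (fun y : zpowers x => (y : G) • a) := by
    intro y z hyz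
    have h2 : ((z : G)⁻¹ * y) • a = a := by
      rw [mul_smul]
      simp only at hyz
      rw [hyz, inv_smul_smul]
    have h3 := semireg hp hx hfpf (mul_mem (inv_mem z.2) y.2) h2
    exact Subtype.ext (inv_mul_eq_one.1 h3).symm
  rw [h1, ← Nat.card_coe_set_eq, Nat.card_range_of_injective hinj, card_zpowers_eq hx]

/-- There are exactly two orbits. -/
theorem two_orbits [Fintype Ω] (hp : p.Prime) (hcard : Fintype.card Ω = 2 * p) {x : G}
    (hx : orderOf x = p) (hfpf : ∀ g : G, orderOf g = p → ∀ a : Ω, g • a ≠ a) {a b c : Ω}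
    (hb : b ∉ orb x a) (hc : c ∉ orb x a) : c ∈ orb x b := by
  have hdisj : Disjoint (orb x a) (orb x b) := by
    rw [Set.disjoint_left]
    intro d hda hdb
    exact hb (orb_trans hda (orb_symm hdb))
  have h1 : (orb x a ∪ orb x b).ncard = 2 * p := by
    rw [Set.ncard_union_eq hdisj, ncard_orb hp hx hfpf, ncard_orb hp hx hfpf]
    ring
  have h2 : orb x a ∪ orb x b = Set.univ := by
    refine Set.eq_of_subset_of_ncard_le (Set.subset_univ _) ?_
    rw [Set.ncard_univ, Nat.card_eq_fintype_card, hcard, h1]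
  have h3 : c ∈ orb x a ∪ orb x b := by rw [h2]; trivial
  exact h3.resolve_left hc

/-- There is a point outside a given orbit. -/
theorem exists_not_mem_orb [Fintype Ω] (hp : p.Prime) (hcard : Fintype.card Ω = 2 * p) {x : G}
    (hx : orderOf x = p) (hfpf : ∀ g : G, orderOf g = p → ∀ a : Ω, g • a ≠ a) (a : Ω) :
    ∃ b, b ∉ orb x a := by
  by_contra hcon
  push Not at hcon
  have h1 : orb x a = Set.univ := Set.eq_univ_of_forall hcon
  have h2 := ncard_orb hp hx hfpf a
  rw [h1, Set.ncard_univ, Nat.card_eq_fintype_card, hcard] at h2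
  have := hp.pos
  omega

/-- The permutation character vanishes on the nontrivial powers of `x`. -/
theorem perm_char_zero (hp : p.Prime) {x : G} (hx : orderOf x = p)
    (hfpf : ∀ g : G, orderOf g = p → ∀ a : Ω, g • a ≠ a) {y : G} (hy : y ∈ zpowers x)
    (hy1 : y ≠ 1) : (Nat.card (MulAction.fixedBy Ω y) : ℂ) = 0 := by
  have : IsEmpty (MulAction.fixedBy Ω y) := by
    refine ⟨fun a => ?_⟩
    exact hy1 (semireg hp hx hfpf hy a.2)
  simp

end Geo

section Prim

variable {G : Type*} [Group G] {Ω : Type*} [Fintype Ω] [MulAction G Ω]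

/-- In a faithful primitive action of non-prime degree, a point stabilizer fixes no other point. -/
theorem exists_moves [FaithfulSMul G Ω] [MulAction.IsPreprimitive G Ω]
    (hn : ¬ (Fintype.card Ω).Prime) {a b : Ω} (hab : b ≠ a) : ∃ h : G, h • a = a ∧ h • b ≠ b := by
  by_contra hcon
  push Not at hcon
  have htriv := stabilizer_trivial_of_fixes hab hcon
  have hbot : MulAction.stabilizer G a = ⊥ := by
    rw [Subgroup.eq_bot_iff_forall]
    intro h hh
    refine FaithfulSMul.eq_of_smul_eq_smul (α := Ω) fun c => ?_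
    rw [htriv h hh c, one_smul]
  have : Nontrivial Ω := ⟨b, a, hab⟩
  have hco : IsCoatom (MulAction.stabilizer G a) :=
    MulAction.IsPreprimitive.isCoatom_stabilizer_of_isPreprimitive _ a
  rw [hbot] at hco
  have h1 := Cfsg.Agent.S0707.prime_card_of_isCoatom_bot hco
  have h2 := MulAction.index_stabilizer_of_transitive G a
  rw [hbot, Subgroup.index_bot, Nat.card_eq_fintype_card (α := Ω)] at h2
  rw [h2] at h1
  exact hn h1

theorem two_trans_of_stab_trans [MulAction.IsPretransitive G Ω] (a₀ : Ω)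
    (h : ∀ b c : Ω, b ≠ a₀ → c ≠ a₀ → ∃ g : G, g • a₀ = a₀ ∧ g • b = c) :
    MulAction.IsMultiplyPretransitive G Ω 2 := by
  rw [MulAction.is_two_pretransitive_iff]
  intro a b c d hab hcd
  obtain ⟨g₁, hg₁⟩ := MulAction.exists_smul_eq G a a₀
  obtain ⟨g₂, hg₂⟩ := MulAction.exists_smul_eq G c a₀
  obtain ⟨k, hk, hkb⟩ := h (g₁ • b) (g₂ • d)
    (fun e => hab (smul_left_cancel g₁ (by rw [hg₁, e])))
    (fun e => hcd (smul_left_cancel g₂ (by rw [hg₂, e])))
  refine ⟨g₂⁻¹ * k * g₁, ?_, ?_⟩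
  · rw [mul_smul, mul_smul, hg₁, hk, ← hg₂, inv_smul_smul]
  · rw [mul_smul, mul_smul, hkb, inv_smul_smul]

theorem two_trans_of_rank_two [MulAction.IsPretransitive G Ω] (a₀ : Ω)
    (hrank : Nat.card (MulAction.orbitRel.Quotient (MulAction.stabilizer G a₀) Ω) = 2) :
    MulAction.IsMultiplyPretransitive G Ω 2 := by
  refine two_trans_of_stab_trans a₀ ?_
  intro b c hb hc
  by_contra hcon
  have hc' : c ∉ suborb G a₀ b := fun h => hcon (mem_suborb.1 h)
  have : Fintype (MulAction.orbitRel.Quotient (MulAction.stabilizer G a₀) Ω) := Fintype.ofFinite _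
  rw [Nat.card_eq_fintype_card] at hrank
  set q₀ : MulAction.orbitRel.Quotient (MulAction.stabilizer G a₀) Ω := Quotient.mk'' a₀
  set q₁ : MulAction.orbitRel.Quotient (MulAction.stabilizer G a₀) Ω := Quotient.mk'' b
  set q₂ : MulAction.orbitRel.Quotient (MulAction.stabilizer G a₀) Ω := Quotient.mk'' c
  have h01 : q₀ ≠ q₁ := by
    intro h
    have := (mk_eq_iff_mem_suborb a₀ b a₀).1 h
    exact not_mem_suborb hb this
  have h02 : q₀ ≠ q₂ := by
    intro h
    have := (mk_eq_iff_mem_suborb a₀ c a₀).1 h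
    exact not_mem_suborb hc this
  have h12 : q₁ ≠ q₂ := by
    intro h
    exact hc' ((mk_eq_iff_mem_suborb a₀ b c).1 h.symm)
  have h3 : ({q₀, q₁, q₂} : Finset _).card = 3 := by
    rw [Finset.card_insert_of_notMem (by simp [h01, h02]),
      Finset.card_insert_of_notMem (by simp [h12]), Finset.card_singleton]
  have h4 := Finset.card_le_univ ({q₀, q₁, q₂} : Finset _)
  omega

end Prim

end Cfsg.Agent.Lib.Helper96
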